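import Cfsg.Agent.Lib.Steiner.Moments
import Mathlib.Combinatorics.SimpleGraph.StronglyRegular

/-!
The block graph and the point-block graph of a Steiner system S(3,6,22) are strongly regular.
-/

set_option autoImplicit false
set_option linter.unusedSectionVars false

namespace Cfsg.Agent.Lib.SteinerUniq.Graph22

open Finset Cfsg Cfsg.Agent.Lib.Steiner.Basic Cfsg.Agent.Lib.Steiner.Moments

variable {α : Type*} [Fintype α] [DecidableEq α] {B : Set (Finset α)}

theorem inter_eq_zero_iff {b c : Finset α} : (c ∩ b).card = 0 ↔ Disjoint c b := by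
  rw [card_eq_zero, Finset.disjoint_iff_inter_eq_empty]

section Counts

variable (hα : Fintype.card α = 22) (hB : IsSteinerSystem 3 6 B)
include hα hB

theorem card_blocks : (blocksF B).card = 77 := by
  have h := card_through_of_mul hB 0 77 (by norm_num) (by norm_num) (by norm_num)
    (by rw [hα]; decide) ∅ rfl
  simpa using h

theorem card_through_one (x : α) : ((blocksF B).filter (fun c => x ∈ c)).card = 21 := by
  have h := card_through_of_mul hB 1 21 (by norm_num) (by norm_num) (by norm_num)
    (by rw [hα]; decide) {x} (card_singleton x)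
  simpa using h

theorem card_through_two {x y : α} (hxy : x ≠ y) :
    ((blocksF B).filter (fun c => x ∈ c ∧ y ∈ c)).card = 5 := by
  have h := card_through_of_mul hB 2 5 (by norm_num) (by norm_num) (by norm_num)
    (by rw [hα]; decide) {x, y} (card_pair hxy)
  simpa [insert_subset_iff] using h

theorem inter_cases {b c : Finset α} (hb : b ∈ B) (hc : c ∈ B) (hbc : b ≠ c) :
    (b ∩ c).card = 0 ∨ (b ∩ c).card = 2 := by
  have hk : ∀ i, (b ∩ c).card = i → i = 1 ∨ i = 3 ∨ i = 4 ∨ i = 5 → False := by
    intro i hi h
    apply inter_card_ne_of_tri_eq_zero hB (by norm_num) hb hc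
    rw [hi, hα]
    rcases h with rfl | rfl | rfl | rfl <;> decide +kernel
  have hle : (b ∩ c).card ≤ 6 := by
    rw [← hB.1 b hb]
    exact card_le_card inter_subset_left
  have h6 : (b ∩ c).card ≠ 6 := by
    intro h
    apply hbc
    have h1 : b ∩ c = b := eq_of_subset_of_card_le inter_subset_left (by rw [h, hB.1 b hb])
    have h2 : b ∩ c = c := eq_of_subset_of_card_le inter_subset_right (by rw [h, hB.1 c hc])
    rw [← h1]
    exact h2
  by_contra hne
  have h' : (b ∩ c).card = 1 ∨ (b ∩ c).card = 3 ∨ (b ∩ c).card = 4 ∨ (b ∩ c).card = 5 := by omega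
  exact hk _ rfl h'

theorem card_disjoint {b : Finset α} (hb : b ∈ B) :
    ((blocksF B).filter (fun c => Disjoint c b)).card = 16 := by
  have h := card_contain_miss hB (by norm_num) hb b ∅ (empty_subset _) (Subset.refl _)
    (disjoint_empty_left _)
  rw [card_empty, hB.1 b hb, hα] at h
  have h1 : tri 22 6 3 0 6 = 16 := by decide +kernel
  rw [h1] at h
  rw [← h]
  congr 1
  ext c
  simp

/-- The second mixed moment of the intersection sizes with two sets. -/
theorem sum_mul_inter (b c : Finset α) :
    ∑ d ∈ blocksF B, (d ∩ b).card * (d ∩ c).card = b.card * c.card * 5 + 16 * (b ∩ c).card := by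
  have h1 : ∀ d ∈ blocksF B, (d ∩ b).card * (d ∩ c).card
      = ∑ x ∈ b, ∑ y ∈ c, if x ∈ d ∧ y ∈ d then 1 else 0 := by
    intro d _
    have h2 : ∀ x, (∑ y ∈ c, if x ∈ d ∧ y ∈ d then 1 else 0) = if x ∈ d then (d ∩ c).card else 0 := by
      intro x
      by_cases hx : x ∈ d
      · simp only [hx, true_and, if_true]
        rw [← card_filter]
        congr 1
        ext y
        simp [and_comm]
      · simp [hx]
    simp only [h2]
    rw [Finset.sum_ite, Finset.sum_const_zero, add_zero, Finset.sum_const, smul_eq_mul]
    congr 2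
    ext x
    simp [and_comm]
  rw [Finset.sum_congr rfl h1, Finset.sum_comm]
  have h3 : ∀ x ∈ b, (∑ d ∈ blocksF B, ∑ y ∈ c, if x ∈ d ∧ y ∈ d then 1 else 0)
      = c.card * 5 + if x ∈ c then 16 else 0 := by
    intro x _
    rw [Finset.sum_comm]
    have h4 : ∀ y ∈ c, (∑ d ∈ blocksF B, if x ∈ d ∧ y ∈ d then 1 else 0)
        = 5 + if y = x then 16 else 0 := by
      intro y _
      rw [← card_filter]
      by_cases hxy : y = x
      · subst hxy
        simp only [and_self, if_true]
        exact card_through_one hα hB y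
      · rw [if_neg hxy, card_through_two hα hB (Ne.symm hxy)]
    rw [Finset.sum_congr rfl h4, Finset.sum_add_distrib, Finset.sum_const, smul_eq_mul]
    congr 1
    rw [Finset.sum_ite_eq']
  rw [Finset.sum_congr rfl h3, Finset.sum_add_distrib, Finset.sum_const, smul_eq_mul, Finset.sum_ite,
    Finset.sum_const, Finset.sum_const_zero, add_zero, smul_eq_mul, Finset.filter_mem_eq_inter]
  ring

/-- Counting the blocks disjoint from two blocks. -/
theorem card_disjoint_two {b c : Finset α} (hb : b ∈ B) (hc : c ∈ B) (hbc : b ≠ c) :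
    ((blocksF B).filter (fun d => Disjoint d b ∧ Disjoint d c)).card + 45
      = ((blocksF B).filter (fun d => ¬ Disjoint d b ∧ ¬ Disjoint d c)).card := by
  have h1 := card_disjoint hα hB hb
  have h2 := card_disjoint hα hB hc
  have h3 := card_blocks hα hB
  have h4 := card_filter_add_card_filter_not (s := blocksF B) (fun d => Disjoint d b)
  have h5 := card_filter_add_card_filter_not
    (s := (blocksF B).filter (fun d => Disjoint d b)) (fun d => Disjoint d c)
  have h6 := card_filter_add_card_filter_not
    (s := (blocksF B).filter (fun d => ¬ Disjoint d b)) (fun d => Disjoint d c)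
  have h7 := card_filter_add_card_filter_not (s := blocksF B) (fun d => Disjoint d c)
  have h8 := card_filter_add_card_filter_not
    (s := (blocksF B).filter (fun d => Disjoint d c)) (fun d => Disjoint d b)
  simp only [filter_filter] at h5 h6 h8
  have e1 : (blocksF B).filter (fun d => Disjoint d c ∧ Disjoint d b)
      = (blocksF B).filter (fun d => Disjoint d b ∧ Disjoint d c) := by
    ext d
    simp [and_comm]
  have e2 : (blocksF B).filter (fun d => Disjoint d c ∧ ¬ Disjoint d b)
      = (blocksF B).filter (fun d => ¬ Disjoint d b ∧ Disjoint d c) := by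
    ext d
    simp [and_comm]
  rw [e1, e2] at h8
  omega

theorem nonempty_block {b : Finset α} (hb : b ∈ B) : b.Nonempty := by
  rw [← card_pos, hB.1 b hb]
  norm_num

/-- The sum of the products over the blocks meeting both blocks. -/
theorem sum_mul_eq (b c : Finset α) :
    ∑ d ∈ (blocksF B).filter (fun d => ¬ Disjoint d b ∧ ¬ Disjoint d c), (d ∩ b).card * (d ∩ c).card
      = b.card * c.card * 5 + 16 * (b ∩ c).card := by
  rw [← sum_mul_inter hα hB b c, Finset.sum_filter]
  apply Finset.sum_congr rfl
  intro d _
  split_ifs with h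
  · rfl
  · rw [not_and_or, not_not, not_not] at h
    rcases h with h | h
    · rw [inter_eq_zero_iff.mpr h, zero_mul]
    · rw [inter_eq_zero_iff.mpr h, mul_zero]

theorem common_disjoint_zero {b c : Finset α} (hb : b ∈ B) (hc : c ∈ B) (hd : Disjoint b c) :
    ((blocksF B).filter (fun d => Disjoint d b ∧ Disjoint d c)).card = 0 := by
  have hbc : b ≠ c := by
    rintro rfl
    exact (nonempty_block hα hB hb).ne_empty (disjoint_self.mp hd)
  have h1 := card_disjoint_two hα hB hb hc hbc
  have h2 := sum_mul_eq hα hB b c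
  rw [hB.1 b hb, hB.1 c hc, disjoint_iff_inter_eq_empty.mp hd, card_empty] at h2
  have h3 : ∀ d ∈ (blocksF B).filter (fun d => ¬ Disjoint d b ∧ ¬ Disjoint d c),
      (d ∩ b).card * (d ∩ c).card = 4 := by
    intro d hd'
    rw [mem_filter, mem_blocksF] at hd'
    obtain ⟨hdB, hdb, hdc⟩ := hd'
    have hdb' : d ≠ b := by
      rintro rfl
      exact hdc hd
    have hdc' : d ≠ c := by
      rintro rfl
      exact hdb hd.symm
    rcases inter_cases hα hB hdB hb hdb' with h | h
    · exact absurd (inter_eq_zero_iff.mp h) hdb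
    · rcases inter_cases hα hB hdB hc hdc' with h' | h'
      · exact absurd (inter_eq_zero_iff.mp h') hdc
      · rw [h, h']
  rw [Finset.sum_congr rfl h3, Finset.sum_const, smul_eq_mul] at h2
  omega

theorem common_disjoint_four {b c : Finset α} (hb : b ∈ B) (hc : c ∈ B) (hbc : b ≠ c)
    (hd : ¬ Disjoint b c) :
    ((blocksF B).filter (fun d => Disjoint d b ∧ Disjoint d c)).card = 4 := by
  have h1 := card_disjoint_two hα hB hb hc hbc
  have h2 := sum_mul_eq hα hB b c
  have h0 : (b ∩ c).card = 2 := by
    rcases inter_cases hα hB hb hc hbc with h | h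
    · exact absurd (inter_eq_zero_iff.mp h) hd
    · exact h
  have h0' : (c ∩ b).card = 2 := by rwa [inter_comm]
  rw [hB.1 b hb, hB.1 c hc, h0] at h2
  have hbZ : b ∈ (blocksF B).filter (fun d => ¬ Disjoint d b ∧ ¬ Disjoint d c) := by
    rw [mem_filter, mem_blocksF]
    refine ⟨hb, ?_, hd⟩
    intro h
    exact (nonempty_block hα hB hb).ne_empty (disjoint_self.mp h)
  have hcZ : c ∈ (blocksF B).filter (fun d => ¬ Disjoint d b ∧ ¬ Disjoint d c) := by
    rw [mem_filter, mem_blocksF]
    refine ⟨hc, fun h => hd h.symm, ?_⟩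
    intro h
    exact (nonempty_block hα hB hc).ne_empty (disjoint_self.mp h)
  have h3 : ∀ d ∈ (blocksF B).filter (fun d => ¬ Disjoint d b ∧ ¬ Disjoint d c),
      (d ∩ b).card * (d ∩ c).card = 4 + (if d = b then 8 else 0) + (if d = c then 8 else 0) := by
    intro d hd'
    rw [mem_filter, mem_blocksF] at hd'
    obtain ⟨hdB, hdb, hdc⟩ := hd'
    by_cases h4 : d = b
    · subst h4
      rw [inter_self, hB.1 d hb, h0, if_pos rfl, if_neg hbc]
    · by_cases h5 : d = c
      · subst h5
        rw [inter_self, hB.1 d hc, h0', if_neg h4, if_pos rfl]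
      · rw [if_neg h4, if_neg h5]
        rcases inter_cases hα hB hdB hb h4 with h | h
        · exact absurd (inter_eq_zero_iff.mp h) hdb
        · rcases inter_cases hα hB hdB hc h5 with h' | h'
          · exact absurd (inter_eq_zero_iff.mp h') hdc
          · rw [h, h']
  rw [Finset.sum_congr rfl h3, Finset.sum_add_distrib, Finset.sum_add_distrib, Finset.sum_const,
    smul_eq_mul, Finset.sum_ite_eq', Finset.sum_ite_eq', if_pos hbZ, if_pos hcZ] at h2
  omega

/-- Blocks through a point disjoint from a block missing that point. -/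
theorem card_through_disjoint {a : α} {b : Finset α} (hb : b ∈ B) (hab : a ∉ b) :
    ((blocksF B).filter (fun c => a ∈ c ∧ Disjoint c b)).card = 6 := by
  have h1 := card_through_one hα hB a
  have h2 := card_filter_add_card_filter_not (s := (blocksF B).filter (fun c => a ∈ c))
    (fun c => Disjoint c b)
  simp only [filter_filter] at h2
  rw [h1] at h2
  -- the sum of the intersection sizes
  have h3 : ∑ c ∈ (blocksF B).filter (fun c => a ∈ c), (c ∩ b).card = 30 := by
    have h4 : ∀ c ∈ (blocksF B).filter (fun c => a ∈ c), (c ∩ b).card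
        = ∑ x ∈ b, if x ∈ c then 1 else 0 := by
      intro c _
      rw [← card_filter]
      congr 1
      ext y
      simp [and_comm]
    rw [Finset.sum_congr rfl h4, Finset.sum_comm]
    have h5 : ∀ x ∈ b, (∑ c ∈ (blocksF B).filter (fun c => a ∈ c), if x ∈ c then 1 else 0) = 5 := by
      intro x hx
      rw [← card_filter, filter_filter]
      exact card_through_two hα hB (fun h => hab (h ▸ hx))
    rw [Finset.sum_congr rfl h5, Finset.sum_const, smul_eq_mul, hB.1 b hb]
  have h6 : ∑ c ∈ (blocksF B).filter (fun c => a ∈ c), (c ∩ b).card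
      = 2 * ((blocksF B).filter (fun c => a ∈ c ∧ ¬ Disjoint c b)).card := by
    rw [mul_comm, ← smul_eq_mul, ← Finset.sum_const, ← filter_filter, Finset.sum_filter (s := (blocksF B).filter (fun c => a ∈ c))
      (p := fun c => ¬ Disjoint c b)]
    apply Finset.sum_congr rfl
    intro c hc
    rw [mem_filter, mem_blocksF] at hc
    have hcb : c ≠ b := by
      rintro rfl
      exact hab hc.2
    split_ifs with h
    · exact inter_eq_zero_iff.mpr h
    · rcases inter_cases hα hB hc.1 hb hcb with h' | h'
      · exact absurd (inter_eq_zero_iff.mp h') h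
      · exact h'
  omega

end Counts

section Graphs

theorem ncard_subtype (P : Finset α → Prop) [DecidablePred P] :
    {w : B | P w.1}.ncard = ((blocksF B).filter P).card := by
  rw [← Set.ncard_coe_finset]
  have : (((blocksF B).filter P : Finset (Finset α)) : Set (Finset α))
      = Subtype.val '' {w : B | P w.1} := by
    ext c
    simp only [coe_filter, mem_blocksF, Set.mem_ofPred_eq, Set.mem_image, Subtype.exists,
      exists_and_right, exists_eq_right]
    constructor
    · rintro ⟨h1, h2⟩
      exact ⟨h1, h2⟩
    · rintro ⟨h1, h2⟩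
      exact ⟨h1, h2⟩
  rw [this, Set.ncard_image_of_injective _ Subtype.val_injective]

theorem card_of_ncard {V : Type*} (s : Set V) [Fintype s] : Fintype.card s = s.ncard := by
  rw [← Nat.card_eq_fintype_card, Nat.card_coe_set_eq]

variable (hα : Fintype.card α = 22) (hB : IsSteinerSystem 3 6 B)
include hα hB

theorem blockAdj_iff (v u : B) : (blockGraph B).Adj v u ↔ Disjoint u.1 v.1 := by
  rw [blockGraph, SimpleGraph.fromRel_adj]
  constructor
  · rintro ⟨_, h | h⟩
    · exact h.symm
    · exact h
  · intro h
    refine ⟨?_, Or.inr h⟩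
    rintro rfl
    exact (nonempty_block hα hB v.2).ne_empty (disjoint_self.mp h)

/-- **The block graph of an S(3,6,22).** -/
theorem blockGraph_srg [Fintype B] [DecidableRel (blockGraph B).Adj] :
    (blockGraph B).IsSRGWith 77 16 0 4 := by
  have hcn : ∀ v w : B, ((blockGraph B).commonNeighbors v w).ncard
      = ((blocksF B).filter (fun d => Disjoint d v.1 ∧ Disjoint d w.1)).card := by
    intro v w
    rw [← ncard_subtype]
    congr 1
    ext u
    simp only [SimpleGraph.commonNeighbors, Set.mem_inter_iff, SimpleGraph.mem_neighborSet,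
      Set.mem_ofPred_eq, blockAdj_iff hα hB]
  refine ⟨?_, ?_, ?_, ?_⟩
  · rw [Fintype.card_of_subtype (blocksF B) (fun x => mem_blocksF)]
    exact card_blocks hα hB
  · intro v
    rw [← SimpleGraph.card_neighborSet_eq_degree, card_of_ncard]
    have : (blockGraph B).neighborSet v = {u : B | Disjoint u.1 v.1} := by
      ext u
      exact blockAdj_iff hα hB v u
    rw [this, ncard_subtype (fun c => Disjoint c v.1)]
    exact card_disjoint hα hB v.2
  · intro v w hvw
    rw [card_of_ncard, hcn]
    exact common_disjoint_zero hα hB v.2 w.2 ((blockAdj_iff hα hB v w).mp hvw).symm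
  · intro v w hne hvw
    rw [card_of_ncard, hcn]
    refine common_disjoint_four hα hB v.2 w.2 (fun h => hne (Subtype.ext h)) ?_
    intro h
    exact hvw ((blockAdj_iff hα hB v w).mpr h.symm)

open scoped Classical in
omit hα hB in
theorem ncard_split [Finite B] (S : Set (Option (α ⊕ B))) :
    S.ncard = (if none ∈ S then 1 else 0) + {a : α | some (Sum.inl a) ∈ S}.ncard
      + {w : B | some (Sum.inr w) ∈ S}.ncard := by
  classical
  let f : α → Option (α ⊕ B) := fun a => some (Sum.inl a)
  let g : B → Option (α ⊕ B) := fun a => some (Sum.inr a)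
  have hf : Function.Injective f := fun a b h => by simpa [f] using h
  have hg : Function.Injective g := fun a b h => by simpa [g] using h
  have h1 : S = (if none ∈ S then {none} else ∅) ∪
      (f '' {a : α | some (Sum.inl a) ∈ S} ∪ g '' {w : B | some (Sum.inr w) ∈ S}) := by
    ext x
    rcases x with _ | a | w
    · by_cases h : none ∈ S <;> simp [h, f, g]
    · by_cases h : none ∈ S <;> simp [h, f, g]
    · by_cases h : none ∈ S <;> simp [h, f, g]
  have hd2 : Disjoint (f '' {a : α | some (Sum.inl a) ∈ S}) (g '' {w : B | some (Sum.inr w) ∈ S}) := by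
    rw [Set.disjoint_left]
    rintro _ ⟨a, _, rfl⟩ ⟨w, _, hw⟩
    simp [f, g] at hw
  have hd1 : Disjoint (if none ∈ S then {none} else (∅ : Set (Option (α ⊕ B))))
      (f '' {a : α | some (Sum.inl a) ∈ S} ∪ g '' {w : B | some (Sum.inr w) ∈ S}) := by
    rw [Set.disjoint_left]
    intro x hx hx2
    split_ifs at hx with h
    · rw [Set.mem_singleton_iff] at hx
      subst hx
      rcases hx2 with ⟨a, _, ha⟩ | ⟨a, _, ha⟩ <;> simp [f, g] at ha
    · exact hx
  conv_lhs => rw [h1]
  rw [Set.ncard_union_eq hd1 (Set.toFinite _) (Set.toFinite _),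
    Set.ncard_union_eq hd2 (Set.toFinite _) (Set.toFinite _),
    Set.ncard_image_of_injective _ hf, Set.ncard_image_of_injective _ hg, add_assoc]
  congr 1
  split_ifs
  · exact Set.ncard_singleton _
  · exact Set.ncard_empty _

omit hα hB in
theorem adj_ni (a : α) : (pointBlockGraph B).Adj none (some (Sum.inl a)) := by
  simp [pointBlockGraph, pointBlockRel, SimpleGraph.fromRel_adj]

omit hα hB in
theorem not_adj_nb (w : B) : ¬ (pointBlockGraph B).Adj none (some (Sum.inr w)) := by
  simp [pointBlockGraph, pointBlockRel, SimpleGraph.fromRel_adj]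

omit hα hB in
theorem not_adj_nn : ¬ (pointBlockGraph B).Adj none none := by
  simp [pointBlockGraph]

omit hα hB in
theorem not_adj_ii (a a' : α) : ¬ (pointBlockGraph B).Adj (some (Sum.inl a)) (some (Sum.inl a')) := by
  simp [pointBlockGraph, pointBlockRel, SimpleGraph.fromRel_adj]

omit hα hB in
theorem adj_ib (a : α) (w : B) :
    (pointBlockGraph B).Adj (some (Sum.inl a)) (some (Sum.inr w)) ↔ a ∈ w.1 := by
  simp [pointBlockGraph, pointBlockRel, SimpleGraph.fromRel_adj]

theorem adj_bb (v u : B) :
    (pointBlockGraph B).Adj (some (Sum.inr v)) (some (Sum.inr u)) ↔ Disjoint u.1 v.1 := by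
  simp only [pointBlockGraph, SimpleGraph.fromRel_adj, pointBlockRel, ne_eq, Option.some.injEq,
    Sum.inr.injEq]
  constructor
  · rintro ⟨_, h | h⟩
    · exact h.symm
    · exact h
  · intro h
    refine ⟨?_, Or.inr h⟩
    rintro rfl
    exact (nonempty_block hα hB v.2).ne_empty (disjoint_self.mp h)

open scoped Classical in
omit hα hB in
theorem ncard_common [Finite B] (v w : Option (α ⊕ B)) :
    ((pointBlockGraph B).commonNeighbors v w).ncard
      = (if (pointBlockGraph B).Adj v none ∧ (pointBlockGraph B).Adj w none then 1 else 0)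
        + {a : α | (pointBlockGraph B).Adj v (some (Sum.inl a)) ∧
            (pointBlockGraph B).Adj w (some (Sum.inl a))}.ncard
        + {u : B | (pointBlockGraph B).Adj v (some (Sum.inr u)) ∧
            (pointBlockGraph B).Adj w (some (Sum.inr u))}.ncard := by
  rw [ncard_split]
  refine congrArg₂ (· + ·) (congrArg₂ (· + ·) ?_ rfl) rfl
  by_cases h : (pointBlockGraph B).Adj v none ∧ (pointBlockGraph B).Adj w none
  · rw [if_pos h]
    exact if_pos h
  · rw [if_neg h]
    exact if_neg h

/-- **The point-block graph of an S(3,6,22).** -/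
theorem pointBlockGraph_srg [Fintype B] [DecidableRel (pointBlockGraph B).Adj] :
    (pointBlockGraph B).IsSRGWith 100 22 0 6 := by
  have hcB : Fintype.card B = 77 := by
    rw [Fintype.card_of_subtype (blocksF B) (fun x => mem_blocksF)]
    exact card_blocks hα hB
  have hempty1 : ∀ a', {a : α | (pointBlockGraph B).Adj none (some (Sum.inl a)) ∧
      (pointBlockGraph B).Adj (some (Sum.inl a')) (some (Sum.inl a))} = ∅ := by
    intro a'
    ext a
    simp [not_adj_ii]
  have huniv : (Set.univ : Set α).ncard = 22 := by
    rw [Set.ncard_univ, Nat.card_eq_fintype_card, hα]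
  have hset : ∀ b : Finset α, ({a : α | a ∈ b} : Set α).ncard = b.card := fun b => Set.ncard_coe_finset b
  have hcomm := fun v w => SimpleGraph.commonNeighbors_symm (pointBlockGraph B) v w
  have adj_in : ∀ a, (pointBlockGraph B).Adj (some (Sum.inl a)) none := fun a => (adj_ni a).symm
  have not_adj_bn : ∀ w : B, ¬ (pointBlockGraph B).Adj (some (Sum.inr w)) none :=
    fun w h => not_adj_nb w h.symm
  have adj_bi : ∀ (w : B) a, (pointBlockGraph B).Adj (some (Sum.inr w)) (some (Sum.inl a)) ↔ a ∈ w.1 :=
    fun w a => ⟨fun h => (adj_ib a w).mp h.symm, fun h => ((adj_ib a w).mpr h).symm⟩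
  -- the cases of the common neighbours
  have c_ni : ∀ a', ((pointBlockGraph B).commonNeighbors none (some (Sum.inl a'))).ncard = 0 := by
    intro a'
    rw [ncard_common]
    simp [not_adj_nn, not_adj_ii, not_adj_nb]
  have c_ib : ∀ a (w : B), a ∈ w.1 →
      ((pointBlockGraph B).commonNeighbors (some (Sum.inl a)) (some (Sum.inr w))).ncard = 0 := by
    intro a w haw
    rw [ncard_common]
    simp only [not_adj_ii, not_adj_bn, adj_ib, adj_bb hα hB, and_false, false_and, if_false]
    have : {u : B | a ∈ u.1 ∧ Disjoint u.1 w.1} = ∅ := by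
      ext u
      simp only [Set.mem_ofPred_eq, Set.mem_empty_iff_false, iff_false, not_and]
      intro hau hd
      exact Finset.disjoint_left.mp hd hau haw
    rw [this]
    simp
  have c_bb : ∀ v w : B, Disjoint v.1 w.1 →
      ((pointBlockGraph B).commonNeighbors (some (Sum.inr v)) (some (Sum.inr w))).ncard = 0 := by
    intro v w hd
    rw [ncard_common]
    simp only [not_adj_bn, false_and, if_false, adj_bi, adj_bb hα hB]
    have h1 : {a : α | a ∈ v.1 ∧ a ∈ w.1} = ∅ := by
      ext a
      simp only [Set.mem_ofPred_eq, Set.mem_empty_iff_false, iff_false, not_and]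
      exact fun h1 h2 => Finset.disjoint_left.mp hd h1 h2
    rw [h1, ncard_subtype (fun c => Disjoint c v.1 ∧ Disjoint c w.1),
      common_disjoint_zero hα hB v.2 w.2 hd]
    simp
  have c_nb : ∀ w : B, ((pointBlockGraph B).commonNeighbors none (some (Sum.inr w))).ncard = 6 := by
    intro w
    rw [ncard_common]
    simp only [not_adj_nn, false_and, if_false, adj_ni, true_and, adj_bi, not_adj_nb, false_and]
    rw [hset, hB.1 _ w.2]
    simp
  have c_ii : ∀ a a' : α, a ≠ a' →
      ((pointBlockGraph B).commonNeighbors (some (Sum.inl a)) (some (Sum.inl a'))).ncard = 6 := by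
    intro a a' hne
    rw [ncard_common]
    simp only [adj_in, and_self, if_true, not_adj_ii, false_and, adj_ib]
    rw [ncard_subtype (fun c => a ∈ c ∧ a' ∈ c), card_through_two hα hB hne]
    simp
  have c_ib' : ∀ a (w : B), a ∉ w.1 →
      ((pointBlockGraph B).commonNeighbors (some (Sum.inl a)) (some (Sum.inr w))).ncard = 6 := by
    intro a w haw
    rw [ncard_common]
    simp only [not_adj_ii, not_adj_bn, adj_ib, adj_bb hα hB, and_false, false_and, if_false]
    rw [ncard_subtype (fun c => a ∈ c ∧ Disjoint c w.1), card_through_disjoint hα hB w.2 haw]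
    simp
  have c_bb' : ∀ v w : B, v ≠ w → ¬ Disjoint v.1 w.1 →
      ((pointBlockGraph B).commonNeighbors (some (Sum.inr v)) (some (Sum.inr w))).ncard = 6 := by
    intro v w hne hd
    have hne' : v.1 ≠ w.1 := fun h => hne (Subtype.ext h)
    rw [ncard_common]
    simp only [not_adj_bn, false_and, if_false, adj_bi, adj_bb hα hB]
    have h1 : {a : α | a ∈ v.1 ∧ a ∈ w.1}.ncard = 2 := by
      have : {a : α | a ∈ v.1 ∧ a ∈ w.1} = ((v.1 ∩ w.1 : Finset α) : Set α) := by
        ext a
        simp
      rw [this, Set.ncard_coe_finset]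
      rcases inter_cases hα hB v.2 w.2 hne' with h | h
      · exact absurd (inter_eq_zero_iff.mp h) hd
      · exact h
    rw [h1, ncard_subtype (fun c => Disjoint c v.1 ∧ Disjoint c w.1),
      common_disjoint_four hα hB v.2 w.2 hne' hd]
  refine ⟨?_, ?_, ?_, ?_⟩
  · rw [Fintype.card_option, Fintype.card_sum, hα, hcB]
  · intro v
    rw [← SimpleGraph.card_neighborSet_eq_degree, card_of_ncard, ncard_split]
    rcases v with _ | a | w
    · simp only [SimpleGraph.mem_neighborSet, not_adj_nn, if_false, adj_ni, not_adj_nb]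
      simp only [Set.ofPred_true, huniv, Set.ofPred_false, Set.ncard_empty]
    · simp only [SimpleGraph.mem_neighborSet, adj_in, if_true, not_adj_ii, adj_ib]
      simp only [Set.ofPred_false, Set.ncard_empty]
      rw [ncard_subtype (fun c => a ∈ c), card_through_one hα hB]
    · simp only [SimpleGraph.mem_neighborSet, not_adj_bn, if_false, adj_bi, adj_bb hα hB]
      rw [hset, hB.1 _ w.2, ncard_subtype (fun c => Disjoint c w.1), card_disjoint hα hB w.2]
  · intro v w hvw
    rw [card_of_ncard]
    rcases v with _ | a | v <;> rcases w with _ | a' | w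
    · exact absurd hvw not_adj_nn
    · exact c_ni a'
    · exact absurd hvw (not_adj_nb w)
    · rw [hcomm]
      exact c_ni a
    · exact absurd hvw (not_adj_ii a a')
    · exact c_ib a w ((adj_ib a w).mp hvw)
    · exact absurd hvw (not_adj_bn v)
    · rw [hcomm]
      exact c_ib a' v ((adj_bi v a').mp hvw)
    · exact c_bb v w ((adj_bb hα hB v w).mp hvw).symm
  · intro v w hne hvw
    rw [card_of_ncard]
    rcases v with _ | a | v <;> rcases w with _ | a' | w
    · exact absurd rfl hne
    · exact absurd (adj_ni a') hvw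
    · exact c_nb w
    · exact absurd (adj_in a) hvw
    · exact c_ii a a' (fun h => hne (by rw [h]))
    · exact c_ib' a w (fun h => hvw ((adj_ib a w).mpr h))
    · rw [hcomm]
      exact c_nb v
    · rw [hcomm]
      exact c_ib' a' v (fun h => hvw ((adj_bi v a').mpr h))
    · refine c_bb' v w (fun h => hne (by rw [h])) (fun h => hvw ((adj_bb hα hB v w).mpr h.symm))

end Graphs

end Cfsg.Agent.Lib.SteinerUniq.Graph22
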