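import Cfsg.Agent.Lib.SteinerUniq.Rigid
import Cfsg.Agent.S0361
import Cfsg.Agent.S0359
import Cfsg.Agent.S0362
import Cfsg.Agent.S0363
import Cfsg.Agent.S0382
import Cfsg.Agent.S0383
import Cfsg.Agent.S0384
import Cfsg.Agent.S0385
import Cfsg.Agent.S0387
import Cfsg.Agent.S0388
import Cfsg.Agent.S0408
import Cfsg.Agent.S0411
import Cfsg.Prelude.Def_Sporadic

/-!
The automorphism groups of the Steiner systems S(5,6,12) and S(4,5,11).
-/

set_option autoImplicit false
set_option linter.unusedSectionVars false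

namespace Cfsg.Agent.Lib.SteinerUniq.M12

open Finset Cfsg
open Cfsg.Agent.Lib.SteinerSearch.Core (mset mem_mset)
open Cfsg.Agent.Lib.SteinerUniq.Lift (mem_aut_iff)
open Cfsg.Agent.Lib.SteinerUniq.Rigid
open Cfsg.Agent.Lib.Golay.Perm
open scoped Pointwise

section Abstract

variable {α β : Type*} [Fintype α] [Fintype β] [DecidableEq α] [DecidableEq β] {B : Set (Finset α)}
  {B' : Set (Finset β)}

theorem smul_image (F : α ≃ β) (g : Equiv.Perm β) (b : Finset α) :
    (F.symm.permCongr g • b).image F = g • b.image F := by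
  ext x
  simp only [Finset.mem_image, Finset.mem_smul_finset, Equiv.Perm.smul_def]
  constructor
  · rintro ⟨_, ⟨y, hy, rfl⟩, rfl⟩
    exact ⟨F y, ⟨y, hy, rfl⟩, by simp [Equiv.permCongr_apply]⟩
  · rintro ⟨_, ⟨y, hy, rfl⟩, rfl⟩
    exact ⟨_, ⟨y, hy, rfl⟩, by simp [Equiv.permCongr_apply]⟩

theorem mem_iff_image {F : α ≃ β} (hF : (fun b => b.image F) '' B = B') (b : Finset α) :
    b ∈ B ↔ b.image F ∈ B' := by
  rw [← hF]
  constructor
  · intro hb
    exact ⟨b, hb, rfl⟩
  · rintro ⟨c, hc, h⟩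
    have : c = b := Finset.image_injective F.injective h
    rwa [← this]

theorem conj_aut {F : α ≃ β} (hF : (fun b => b.image F) '' B = B') {g : Equiv.Perm β}
    (hg : g ∈ setSystemAut B') : F.symm.permCongr g ∈ setSystemAut B := by
  rw [mem_aut_iff]
  intro b
  rw [mem_iff_image hF, mem_iff_image hF b, smul_image, mem_aut_iff.mp hg]

theorem symm_image {F : α ≃ β} (hF : (fun b => b.image F) '' B = B') :
    (fun b => b.image F.symm) '' B' = B := by
  ext b
  constructor
  · rintro ⟨c, hc, rfl⟩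
    rw [mem_iff_image hF]
    rw [Finset.image_image]
    simpa using hc
  · intro hb
    refine ⟨b.image F, (mem_iff_image hF b).mp hb, ?_⟩
    show (b.image F).image F.symm = b
    rw [Finset.image_image]
    simp

/-- The principle: a faithful multiply transitive action on a rigid system. -/
theorem transfer {G : Type*} [Group G] (Ψ : G →* Equiv.Perm α) (hinj : Function.Injective Ψ)
    (haut : ∀ γ, Ψ γ ∈ setSystemAut B) {n : ℕ}
    (htrans : ∀ x y : Fin n ↪ α, ∃ γ, ∀ i, Ψ γ (x i) = y i) (x₀ : Fin n ↪ α)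
    (hrig : ∀ g ∈ setSystemAut B, (∀ i, g (x₀ i) = x₀ i) → g = 1) :
    Nonempty (G ≃* setSystemAut B) ∧ MulAction.IsMultiplyPretransitive (setSystemAut B) α n ∧
      ∀ x : Fin n ↪ α, MulAction.stabilizer (setSystemAut B) x = ⊥ := by
  have hrig' : ∀ g ∈ setSystemAut B, ∀ x : Fin n ↪ α, (∀ i, g (x i) = x i) → g = 1 := by
    intro g hg x hx
    obtain ⟨γ, hγ⟩ := htrans x x₀
    have h1 : Ψ γ * g * (Ψ γ)⁻¹ = 1 := by
      apply hrig _ (mul_mem (mul_mem (haut γ) hg) (inv_mem (haut γ)))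
      intro i
      rw [← hγ i]
      simp [hx i]
    have h2 : g = (Ψ γ)⁻¹ * 1 * Ψ γ := by
      rw [← h1]
      group
    rw [h2]
    group
  have hsurj : ∀ g ∈ setSystemAut B, ∃ γ, Ψ γ = g := by
    intro g hg
    let y : Fin n ↪ α := ⟨fun i => g (x₀ i), fun a b hab => x₀.injective (g.injective hab)⟩
    obtain ⟨γ, hγ⟩ := htrans x₀ y
    refine ⟨γ, ?_⟩
    have h1 : (Ψ γ)⁻¹ * g = 1 := by
      apply hrig _ (mul_mem (inv_mem (haut γ)) hg)
      intro i
      rw [Equiv.Perm.mul_apply, Equiv.Perm.inv_eq_iff_eq]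
      exact (hγ i).symm
    have h2 : g = Ψ γ * ((Ψ γ)⁻¹ * g) := by group
    rw [h2, h1, mul_one]
  refine ⟨⟨MulEquiv.ofBijective
    ((Ψ.codRestrict (setSystemAut B) haut)) ⟨?_, ?_⟩⟩, ⟨fun x y => ?_⟩, fun x => ?_⟩
  · intro a b hab
    exact hinj (congrArg Subtype.val hab)
  · rintro ⟨g, hg⟩
    obtain ⟨γ, hγ⟩ := hsurj g hg
    exact ⟨γ, Subtype.ext hγ⟩
  · obtain ⟨γ, hγ⟩ := htrans x y
    refine ⟨⟨Ψ γ, haut γ⟩, ?_⟩
    ext i
    exact hγ i
  · rw [eq_bot_iff]
    rintro ⟨g, hg⟩ hgx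
    have h1 : g = 1 := by
      apply hrig' g hg x
      intro i
      have h2 := congrArg (fun z : Fin n ↪ α => z i) (MulAction.mem_stabilizer_iff.mp hgx)
      exact h2
    exact Subtype.ext h1

end Abstract

section Models

/-- A block through `t` fixed points is fixed, and so is its last point. -/
theorem fix_last {α : Type*} [Fintype α] [DecidableEq α] {t k : ℕ} {B : Set (Finset α)} (hS : IsSteinerSystem t k B)
    {b s : Finset α} (hb : b ∈ B) (hsb : s ⊆ b) (hs : s.card = t) (hk : k = t + 1)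
    {g : Equiv.Perm α} (hg : g ∈ setSystemAut B) (hfix : ∀ x ∈ s, g x = x) {x : α} (hx : x ∈ b)
    (hxs : x ∉ s) : g x = x := by
  have h1 : g • b ∈ B := (mem_aut_iff.mp hg b).mpr hb
  have hsg : s ⊆ g • b := by
    intro y hy
    rw [Finset.mem_smul_finset]
    exact ⟨y, hsb hy, hfix y hy⟩
  have h2 : g • b = b := (hS.2 s hs).unique ⟨h1, hsg⟩ ⟨hb, hsb⟩
  have h3 : g x ∈ b := by
    rw [← h2]
    exact Finset.smul_mem_smul_finset hx
  have h4 : b = insert x s := by
    apply Finset.eq_of_subset_of_card_le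
    · intro y hy
      by_contra hne
      rw [mem_insert, not_or] at hne
      have h5 : (insert y (insert x s)).card ≤ b.card := by
        apply card_le_card
        intro z hz
        rw [mem_insert, mem_insert] at hz
        rcases hz with rfl | rfl | hz
        · exact hy
        · exact hx
        · exact hsb hz
      rw [card_insert_of_notMem (by simp [hne.1, hne.2]), card_insert_of_notMem hxs, hs, hS.1 b hb, hk] at h5
      omega
    · rw [card_insert_of_notMem hxs, hs, hS.1 b hb, hk]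
  rw [h4, mem_insert] at h3
  rcases h3 with h3 | h3
  · exact h3
  · exfalso
    have h5 := hfix _ h3
    have h6 := g.injective h5
    rw [h6] at h3
    exact hxs h3

theorem std12_lt : ∀ m ∈ Cfsg.Agent.Lib.SteinerSearch.S5612.S5612Std, m < 2 ^ 12 := by
  decide +kernel

theorem std11_lt : ∀ m ∈ Cfsg.Agent.Lib.SteinerSearch.S4511.S4511Std, m < 2 ^ 11 := by
  decide +kernel

/-- Rigidity of the standard S(5,6,12). -/
theorem rigid12 (hS : IsSteinerSystem 5 6 (mset 12 '' {m | m ∈ Cfsg.Agent.Lib.SteinerSearch.S5612.S5612Std}))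
    (g : Equiv.Perm (Fin 12)) (hg : g ∈ setSystemAut (mset 12 '' {m | m ∈ Cfsg.Agent.Lib.SteinerSearch.S5612.S5612Std}))
    (hfix : ∀ i : Fin 12, i.val < 5 → g i = i) : g = 1 := by
  refine rigid_of_check (n := 12) (r := 6) rfl std12_lt (m1 := 207) (m2 := 783) (m3 := 3087)
    (by decide +kernel) (by decide +kernel) (by decide +kernel) check12
    (fun _ _ _ _ _ _ => rfl) (fun _ _ _ _ _ _ => rfl) (fun _ _ _ _ _ _ => rfl) g hg ?_
  intro i hi
  by_cases h5 : i.val < 5
  · exact hfix i h5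
  · have hi5 : i = 5 := by
      apply Fin.ext
      show i.val = 5
      omega
    rw [hi5]
    refine fix_last hS (b := mset 12 63) (s := {0, 1, 2, 3, 4}) ⟨63, by decide +kernel, rfl⟩
      (by decide +kernel) (by decide) (by norm_num) hg ?_ (by decide +kernel) (by decide)
    intro x hx
    apply hfix
    revert x
    decide

/-- Rigidity of the standard S(4,5,11). -/
theorem rigid11 (hS : IsSteinerSystem 4 5 (mset 11 '' {m | m ∈ Cfsg.Agent.Lib.SteinerSearch.S4511.S4511Std}))
    (g : Equiv.Perm (Fin 11)) (hg : g ∈ setSystemAut (mset 11 '' {m | m ∈ Cfsg.Agent.Lib.SteinerSearch.S4511.S4511Std}))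
    (hfix : ∀ i : Fin 11, i.val < 4 → g i = i) : g = 1 := by
  refine rigid_of_check (n := 11) (r := 5) rfl std11_lt (m1 := 103) (m2 := 391) (m3 := 1543)
    (by decide +kernel) (by decide +kernel) (by decide +kernel) check11
    (fun _ _ _ _ _ _ => rfl) (fun _ _ _ _ _ _ => rfl) (fun _ _ _ _ _ _ => rfl) g hg ?_
  intro i hi
  by_cases h5 : i.val < 4
  · exact hfix i h5
  · have hi5 : i = 4 := by
      apply Fin.ext
      show i.val = 4
      omega
    rw [hi5]
    refine fix_last hS (b := mset 11 31) (s := {0, 1, 2, 3}) ⟨31, by decide +kernel, rfl⟩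
      (by decide +kernel) (by decide) (by norm_num) hg ?_ (by decide +kernel) (by decide)
    intro x hx
    apply hfix
    revert x
    decide

variable {α : Type*} [Fintype α] [DecidableEq α] {B : Set (Finset α)}

/-- Any S(5,6,12) is rigid at some five points. -/
theorem exists_rigid12 (hα : Fintype.card α = 12) (hB : IsSteinerSystem 5 6 B) :
    ∃ x₀ : Fin 5 ↪ α, ∀ g ∈ setSystemAut B, (∀ i, g (x₀ i) = x₀ i) → g = 1 := by
  let L : α ≃ Fin 12 := Fintype.equivFinOfCardEq hα
  have h1 := Cfsg.Agent.Lib.SteinerSearch.Uniq.isSteiner_map L hB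
  obtain ⟨σ, hσ⟩ := Cfsg.Agent.Lib.SteinerSearch.S5612.exists_perm h1
  have hS := Cfsg.Agent.Lib.SteinerSearch.Uniq.isSteiner_map σ h1
  rw [hσ] at hS
  let F : α ≃ Fin 12 := L.trans σ
  have hF : (fun b => b.image F) '' B = mset 12 '' {m | m ∈ Cfsg.Agent.Lib.SteinerSearch.S5612.S5612Std} := by
    rw [← hσ, Set.image_image]
    apply Set.image_congr
    intro b _
    exact (Cfsg.Agent.Lib.SteinerSearch.Uniq.image_comp_equiv L σ b).symm
  refine ⟨(Fin.castLEEmb (by norm_num)).trans F.symm.toEmbedding, fun g hg hfix => ?_⟩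
  have h2 := rigid12 hS _ (conj_aut (symm_image hF) hg) (by
    intro i hi
    have h3 := hfix ⟨i.val, hi⟩
    simp only [Function.Embedding.trans_apply, Equiv.coe_toEmbedding, Fin.castLEEmb_apply] at h3
    simp only [Equiv.permCongr_apply, Equiv.symm_symm]
    have : (Fin.castLE (by norm_num : 5 ≤ 12) ⟨i.val, hi⟩) = i := rfl
    rw [this] at h3
    rw [h3]
    simp)
  ext x
  have h4 := congrArg (fun k => k (F x)) h2
  simp only [Equiv.permCongr_apply, Equiv.symm_symm, Equiv.Perm.one_apply] at h4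
  simpa using congrArg F.symm h4

/-- Any S(4,5,11) is rigid at some four points. -/
theorem exists_rigid11 (hα : Fintype.card α = 11) (hB : IsSteinerSystem 4 5 B) :
    ∃ x₀ : Fin 4 ↪ α, ∀ g ∈ setSystemAut B, (∀ i, g (x₀ i) = x₀ i) → g = 1 := by
  let L : α ≃ Fin 11 := Fintype.equivFinOfCardEq hα
  have h1 := Cfsg.Agent.Lib.SteinerSearch.Uniq.isSteiner_map L hB
  obtain ⟨σ, hσ⟩ := Cfsg.Agent.Lib.SteinerSearch.S4511.exists_perm h1
  have hS := Cfsg.Agent.Lib.SteinerSearch.Uniq.isSteiner_map σ h1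
  rw [hσ] at hS
  let F : α ≃ Fin 11 := L.trans σ
  have hF : (fun b => b.image F) '' B = mset 11 '' {m | m ∈ Cfsg.Agent.Lib.SteinerSearch.S4511.S4511Std} := by
    rw [← hσ, Set.image_image]
    apply Set.image_congr
    intro b _
    exact (Cfsg.Agent.Lib.SteinerSearch.Uniq.image_comp_equiv L σ b).symm
  refine ⟨(Fin.castLEEmb (by norm_num)).trans F.symm.toEmbedding, fun g hg hfix => ?_⟩
  have h2 := rigid11 hS _ (conj_aut (symm_image hF) hg) (by
    intro i hi
    have h3 := hfix ⟨i.val, hi⟩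
    simp only [Function.Embedding.trans_apply, Equiv.coe_toEmbedding, Fin.castLEEmb_apply] at h3
    simp only [Equiv.permCongr_apply, Equiv.symm_symm]
    have : (Fin.castLE (by norm_num : 4 ≤ 11) ⟨i.val, hi⟩) = i := rfl
    rw [this] at h3
    rw [h3]
    simp)
  ext x
  have h4 := congrArg (fun k => k (F x)) h2
  simp only [Equiv.permCongr_apply, Equiv.symm_symm, Equiv.Perm.one_apply] at h4
  simpa using congrArg F.symm h4

end Models

end Cfsg.Agent.Lib.SteinerUniq.M12
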