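import Cfsg.Agent.Lib.SteinerUniq.M12

/-!
The automorphism groups of the Steiner systems S(5,6,12) and S(4,5,11), through the action of the
stabiliser of a dodecad in the group of the code.
-/

set_option autoImplicit false
set_option linter.unusedSectionVars false

namespace Cfsg.Agent.Lib.SteinerUniq.M12b

open Finset Cfsg
open Cfsg.Agent.Lib.SteinerUniq.Lift (mem_aut_iff)
open Cfsg.Agent.Lib.SteinerUniq.M12
open Cfsg.Agent.Lib.Golay.Perm
open scoped Pointwise

/-- The action on the points of a set preserved by a subgroup of the group of the code. -/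
def psiD (G : Subgroup M24) (D : Finset GolayPt)
    (hD : ∀ m ∈ G, ∀ x, (m : Equiv.Perm GolayPt) x ∈ D ↔ x ∈ D) : G →* Equiv.Perm D where
  toFun m := (m.1.1).subtypePerm (hD m.1 m.2)
  map_one' := by
    ext x
    rfl
  map_mul' a b := by
    ext x
    rfl

theorem psiD_apply (G : Subgroup M24) (D : Finset GolayPt)
    (hD : ∀ m ∈ G, ∀ x, (m : Equiv.Perm GolayPt) x ∈ D ↔ x ∈ D) (m : G) (x : D) :
    (psiD G D hD m x).1 = (m.1.1 : Equiv.Perm GolayPt) x.1 := rfl

/-- The system on `D` given by a family of octads. -/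
def Sys (D : Finset GolayPt) (P : Finset GolayPt → Prop) : Set (Finset D) :=
  {h | ∃ o ∈ octads, P o ∧ h = Finset.subtype (fun p => p ∈ D) o}

theorem smul_subtype (G : Subgroup M24) (D : Finset GolayPt)
    (hD : ∀ m ∈ G, ∀ x, (m : Equiv.Perm GolayPt) x ∈ D ↔ x ∈ D) (m : G) (o : Finset GolayPt) :
    psiD G D hD m • Finset.subtype (fun p => p ∈ D) o
      = Finset.subtype (fun p => p ∈ D) ((m.1.1 : Equiv.Perm GolayPt) • o) := by
  ext x
  rw [Finset.mem_smul_finset, Finset.mem_subtype, Finset.mem_smul_finset]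
  constructor
  · rintro ⟨y, hy, rfl⟩
    exact ⟨y.1, Finset.mem_subtype.mp hy, rfl⟩
  · rintro ⟨y, hy, hyx⟩
    have hyD : y ∈ D := by
      have := x.2
      rw [← hyx] at this
      exact (hD m.1 m.2 y).mp this
    refine ⟨⟨y, hyD⟩, Finset.mem_subtype.mpr hy, Subtype.ext hyx⟩

theorem psiD_mem_aut (G : Subgroup M24) (D : Finset GolayPt)
    (hD : ∀ m ∈ G, ∀ x, (m : Equiv.Perm GolayPt) x ∈ D ↔ x ∈ D) {P : Finset GolayPt → Prop}
    (hP : ∀ m ∈ G, ∀ o ∈ octads, P o → P ((m : Equiv.Perm GolayPt) • o)) (m : G) :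
    psiD G D hD m ∈ setSystemAut (Sys D P) := by
  have key : ∀ m : G, ∀ b ∈ Sys D P, psiD G D hD m • b ∈ Sys D P := by
    rintro m b ⟨o, ho, hPo, rfl⟩
    exact ⟨_, smul_mem_octads m.1.2 ho, hP m.1 m.2 o ho hPo, smul_subtype G D hD m o⟩
  rw [mem_aut_iff]
  intro b
  refine ⟨fun hb => ?_, key m b⟩
  have := key m⁻¹ _ hb
  rw [map_inv] at this
  simpa using this

theorem stab_iff {d : Finset GolayPt} {m : M24} (hm : m ∈ MulAction.stabilizer M24 d) (x : GolayPt) :
    (m : Equiv.Perm GolayPt) x ∈ d ↔ x ∈ d := by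
  have h : (m : Equiv.Perm GolayPt) • d = d := hm
  constructor
  · intro hx
    rw [← h] at hx
    exact (Finset.smul_mem_smul_finset_iff _).mp hx
  · intro hx
    rw [← h]
    exact Finset.smul_mem_smul_finset hx

theorem card_smul_inter {d o : Finset GolayPt} {m : M24} (hm : m ∈ MulAction.stabilizer M24 d) :
    (((m : Equiv.Perm GolayPt) • o) ∩ d).card = (o ∩ d).card := by
  have h : (m : Equiv.Perm GolayPt) • d = d := hm
  conv_lhs => rw [← h]
  rw [← Finset.smul_finset_inter, Finset.card_smul_finset]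

theorem exists_dodecad : ∃ d : Finset GolayPt, d ∈ dodecads := by
  have h := Cfsg.Agent.S0361.result
  have : dodecads.Nonempty := Set.nonempty_of_ncard_ne_zero (by rw [h]; norm_num)
  exact this

variable {α : Type*} [Fintype α] [DecidableEq α] {B : Set (Finset α)}

/-- **The automorphism group of a Steiner system S(5,6,12).** -/
theorem aut12 (hα : Fintype.card α = 12) (hB : IsSteinerSystem 5 6 B) :
    IsM12 (setSystemAut B) ∧ MulAction.IsMultiplyPretransitive (setSystemAut B) α 5 ∧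
      ∀ x : Fin 5 ↪ α, MulAction.stabilizer (setSystemAut B) x = ⊥ := by
  obtain ⟨d, hd⟩ := exists_dodecad
  let G : Subgroup M24 := MulAction.stabilizer M24 d
  have hD : ∀ m ∈ G, ∀ x, (m : Equiv.Perm GolayPt) x ∈ d ↔ x ∈ d := fun m hm x => stab_iff hm x
  let P : Finset GolayPt → Prop := fun o => (o ∩ d).card = 6
  have hP : ∀ m ∈ G, ∀ o ∈ octads, P o → P ((m : Equiv.Perm GolayPt) • o) := by
    intro m hm o _ ho
    show (((m : Equiv.Perm GolayPt) • o) ∩ d).card = 6
    rw [card_smul_inter hm]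
    exact ho
  have hS : IsSteinerSystem 5 6 (Sys d P) := Cfsg.Agent.S0385.result d hd
  have hcard : Fintype.card d = 12 := by
    rw [Fintype.card_coe]
    exact hd.2
  obtain ⟨f, hf⟩ := Cfsg.Agent.S0408.result hα hcard hB hS
  let Ψ : G →* Equiv.Perm α := (f.symm.permCongrHom.toMonoidHom).comp (psiD G d hD)
  have hΨ : ∀ m x, f (Ψ m x) = psiD G d hD m (f x) := by
    intro m x
    simp [Ψ, Equiv.permCongrHom]
  have haut : ∀ γ, Ψ γ ∈ setSystemAut B := fun γ => conj_aut hf (psiD_mem_aut G d hD hP γ)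
  obtain ⟨x₀, hrig⟩ := exists_rigid12 hα hB
  let tilde : (Fin 5 ↪ α) → (Fin 5 ↪ GolayPt) := fun x =>
    x.trans (f.toEmbedding.trans (Function.Embedding.subtype _))
  have htilde : ∀ x i, tilde x i ∈ d := fun x i => (f (x i)).2
  have htrans : ∀ x y : Fin 5 ↪ α, ∃ γ, ∀ i, Ψ γ (x i) = y i := by
    intro x y
    obtain ⟨g, hg, -⟩ := Cfsg.Agent.S0384.result d hd (tilde x) (tilde y) (htilde x) (htilde y)
    refine ⟨g, fun i => ?_⟩
    apply f.injective
    rw [hΨ]
    exact Subtype.ext (hg i)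
  have hinj : Function.Injective Ψ := by
    rw [injective_iff_map_eq_one]
    intro γ hγ
    have h1 : ∀ i, ((γ : M24) : Equiv.Perm GolayPt) (tilde x₀ i) = tilde x₀ i := by
      intro i
      have h2 := hΨ γ (x₀ i)
      rw [hγ] at h2
      exact (congrArg Subtype.val h2).symm
    obtain ⟨g, -, hu⟩ := Cfsg.Agent.S0384.result d hd (tilde x₀) (tilde x₀) (htilde x₀) (htilde x₀)
    have h3 := hu γ h1
    have h4 := hu 1 (fun i => rfl)
    rw [h3, h4]
  obtain ⟨⟨φ⟩, htr, hst⟩ := transfer Ψ hinj haut htrans x₀ hrig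
  have hsimple : IsSimpleGroup G := Cfsg.Agent.S0383.result d hd
  refine ⟨⟨φ.symm.isSimpleGroup, ?_⟩, htr, hst⟩
  rw [← Nat.card_congr φ.toEquiv]
  exact Cfsg.Agent.S0382.result d hd

/-- The Steiner system S(4,5,11) on a dodecad without a point. -/
theorem steiner11 {d : Finset GolayPt} (hd : d ∈ dodecads) {p : GolayPt} (hp : p ∈ d) :
    IsSteinerSystem 4 5 (Sys (d.erase p) (fun o => (o ∩ d).card = 6 ∧ p ∈ o)) := by
  constructor
  · rintro h ⟨o, _, ⟨ho6, hpo⟩, rfl⟩
    rw [Finset.card_subtype]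
    have h1 : o.filter (fun x => x ∈ d.erase p) = (o ∩ d).erase p := by
      ext x
      simp only [mem_filter, mem_erase, mem_inter]
      tauto
    rw [h1, card_erase_of_mem (mem_inter.mpr ⟨hpo, hp⟩), ho6]
  · intro s hs
    let s' : Finset GolayPt := insert p (s.map (Function.Embedding.subtype _))
    have hp' : p ∉ s.map (Function.Embedding.subtype _) := by
      intro h
      obtain ⟨x, _, hx⟩ := Finset.mem_map.mp h
      exact (mem_erase.mp x.2).1 hx
    have hcard : s'.card = 5 := by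
      rw [card_insert_of_notMem hp', card_map, hs]
    obtain ⟨o, ⟨ho, hso⟩, hu⟩ := Cfsg.Agent.S0363.result.2 s' hcard
    have hpo : p ∈ o := hso (mem_insert_self _ _)
    have hsub : s' ⊆ o ∩ d := by
      intro x hx
      refine mem_inter.mpr ⟨hso hx, ?_⟩
      rcases mem_insert.mp hx with rfl | hx
      · exact hp
      · obtain ⟨y, _, rfl⟩ := Finset.mem_map.mp hx
        exact (mem_erase.mp y.2).2
    have h6 : (o ∩ d).card = 6 := by
      have h1 := card_le_card hsub
      rw [hcard] at h1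
      rcases Cfsg.Agent.Lib.Mathieu.Hexads.octad_inter_dodecad Cfsg.Agent.S0359.result
        (fun v hv w hw => Cfsg.Agent.S0362.result v w hv hw) ho hd with h | h | h <;> omega
    refine ⟨Finset.subtype (fun x => x ∈ d.erase p) o, ⟨⟨o, ho, ⟨h6, hpo⟩, rfl⟩, ?_⟩, ?_⟩
    · intro x hx
      rw [Finset.mem_subtype]
      exact hso (mem_insert_of_mem (Finset.mem_map_of_mem _ hx))
    · rintro _ ⟨⟨o', ho', ⟨_, hpo'⟩, rfl⟩, hs'⟩
      have : o' = o := by
        apply hu
        refine ⟨ho', ?_⟩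
        intro x hx
        rcases mem_insert.mp hx with rfl | hx
        · exact hpo'
        · obtain ⟨y, hy, rfl⟩ := Finset.mem_map.mp hx
          exact Finset.mem_subtype.mp (hs' hy)
      rw [this]

/-- **The automorphism group of a Steiner system S(4,5,11).** -/
theorem aut11 (hα : Fintype.card α = 11) (hB : IsSteinerSystem 4 5 B) :
    IsM11 (setSystemAut B) ∧ MulAction.IsMultiplyPretransitive (setSystemAut B) α 4 ∧
      ∀ x : Fin 4 ↪ α, MulAction.stabilizer (setSystemAut B) x = ⊥ := by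
  obtain ⟨d, hd⟩ := exists_dodecad
  have hd12 : d.card = 12 := hd.2
  obtain ⟨p, hp⟩ : d.Nonempty := by
    rw [← card_pos]
    omega
  let G : Subgroup M24 := MulAction.stabilizer M24 d ⊓ MulAction.stabilizer M24 p
  have hfixp : ∀ m ∈ G, (m : Equiv.Perm GolayPt) p = p := fun m hm => hm.2
  let D := d.erase p
  have hD : ∀ m ∈ G, ∀ x, (m : Equiv.Perm GolayPt) x ∈ D ↔ x ∈ D := by
    intro m hm x
    simp only [D, mem_erase]
    rw [stab_iff hm.1 x]
    refine and_congr_left fun _ => ?_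
    constructor
    · intro h hx
      exact h (by rw [hx, hfixp m hm])
    · intro h hx
      apply h
      apply (m : Equiv.Perm GolayPt).injective
      rw [hx, hfixp m hm]
  let P : Finset GolayPt → Prop := fun o => (o ∩ d).card = 6 ∧ p ∈ o
  have hP : ∀ m ∈ G, ∀ o ∈ octads, P o → P ((m : Equiv.Perm GolayPt) • o) := by
    rintro m hm o _ ⟨ho, hpo⟩
    refine ⟨?_, ?_⟩
    · rw [card_smul_inter hm.1]
      exact ho
    · rw [← hfixp m hm]
      exact Finset.smul_mem_smul_finset hpo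
  have hS : IsSteinerSystem 4 5 (Sys D P) := steiner11 hd hp
  have hcard : Fintype.card D = 11 := by
    rw [Fintype.card_coe, card_erase_of_mem hp, hd12]
  obtain ⟨f, hf⟩ := Cfsg.Agent.S0411.result hα hcard hB hS
  let Ψ : G →* Equiv.Perm α := (f.symm.permCongrHom.toMonoidHom).comp (psiD G D hD)
  have hΨ : ∀ m x, f (Ψ m x) = psiD G D hD m (f x) := by
    intro m x
    simp [Ψ, Equiv.permCongrHom]
  have haut : ∀ γ, Ψ γ ∈ setSystemAut B := fun γ => conj_aut hf (psiD_mem_aut G D hD hP γ)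
  obtain ⟨x₀, hrig⟩ := exists_rigid11 hα hB
  -- five points of the dodecad
  let tilde : (Fin 4 ↪ α) → (Fin 5 ↪ GolayPt) := fun x =>
    ⟨Fin.cons p (fun i => (f (x i)).1), by
      rw [Fin.cons_injective_iff]
      constructor
      · rintro ⟨i, hi⟩
        have := (f (x i)).2
        simp only at hi
        rw [hi] at this
        exact (mem_erase.mp this).1 rfl
      · intro a b hab
        exact x.injective (f.injective (Subtype.ext hab))⟩
  have htilde0 : ∀ x, tilde x 0 = p := fun _ => rfl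
  have htildeS : ∀ x (i : Fin 4), tilde x i.succ = (f (x i)).1 := fun _ _ => rfl
  have htilde : ∀ x i, tilde x i ∈ d := by
    intro x i
    refine Fin.cases ?_ (fun j => ?_) i
    · rw [htilde0]
      exact hp
    · rw [htildeS]
      exact (mem_erase.mp (f (x j)).2).2
  have htrans : ∀ x y : Fin 4 ↪ α, ∃ γ, ∀ i, Ψ γ (x i) = y i := by
    intro x y
    obtain ⟨g, hg, -⟩ := Cfsg.Agent.S0384.result d hd (tilde x) (tilde y) (htilde x) (htilde y)
    have hgp : ((g : M24) : Equiv.Perm GolayPt) p = p := hg 0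
    refine ⟨⟨g.1, g.2, hgp⟩, fun i => ?_⟩
    apply f.injective
    rw [hΨ]
    exact Subtype.ext (hg i.succ)
  have hinj : Function.Injective Ψ := by
    rw [injective_iff_map_eq_one]
    intro γ hγ
    have h1 : ∀ i, ((γ : M24) : Equiv.Perm GolayPt) (tilde x₀ i) = tilde x₀ i := by
      intro i
      refine Fin.cases (hfixp γ.1 γ.2) (fun j => ?_) i
      have h2 := hΨ γ (x₀ j)
      rw [hγ] at h2
      exact (congrArg Subtype.val h2).symm
    obtain ⟨g, -, hu⟩ := Cfsg.Agent.S0384.result d hd (tilde x₀) (tilde x₀) (htilde x₀) (htilde x₀)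
    have h3 := hu ⟨γ.1, γ.2.1⟩ h1
    have h4 := hu 1 (fun i => rfl)
    have h5 : (⟨γ.1, γ.2.1⟩ : MulAction.stabilizer M24 d) = 1 := by rw [h3, h4]
    have h6 : (γ : M24) = 1 := congrArg Subtype.val h5
    exact Subtype.ext h6
  obtain ⟨⟨φ⟩, htr, hst⟩ := transfer Ψ hinj haut htrans x₀ hrig
  have hsimple : IsSimpleGroup G := Cfsg.Agent.S0388.result d hd p hp
  refine ⟨⟨φ.symm.isSimpleGroup, ?_⟩, htr, hst⟩
  rw [← Nat.card_congr φ.toEquiv]
  exact Cfsg.Agent.S0387.result d hd p hp

end Cfsg.Agent.Lib.SteinerUniq.M12b
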