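import Cfsg.Agent.Lib.SteinerSearch.S5612
import Cfsg.Agent.Lib.SteinerSearch.S4511
import Cfsg.Agent.Lib.SteinerUniq.Lift

/-!
Rigidity of the Steiner systems S(5,6,12) and S(4,5,11): a kernel-checked search shows that an
automorphism of the standard system fixing the first points is trivial. Also the general principle:
a group acting faithfully on the points of a rigid system and multiply transitively is its
full automorphism group.
-/

set_option autoImplicit false
set_option linter.unusedSectionVars false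

namespace Cfsg.Agent.Lib.SteinerUniq.Rigid

open Finset Cfsg
open Cfsg.Agent.Lib.Golay.Core (allUpTo allUpTo_iff allL allL_iff)
open Cfsg.Agent.Lib.SteinerSearch.Core (mset mem_mset mset_injOn)
open Cfsg.Agent.Lib.SteinerUniq.Lift (mem_aut_iff)
open scoped Pointwise

/-- The image of a mask under a map of points. -/
def imgM (l : ℕ → ℕ) (m : ℕ) : ℕ → ℕ
  | 0 => 0
  | k + 1 => Nat.lor (imgM l m k) (cond (m.testBit k) (2 ^ (l k)) 0)

theorem testBit_imgM (l : ℕ → ℕ) (m k x : ℕ) :
    (imgM l m k).testBit x = true ↔ ∃ i < k, m.testBit i = true ∧ l i = x := by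
  induction k with
  | zero => simp [imgM]
  | succ k ih =>
    rw [imgM, show Nat.lor (imgM l m k) (cond (m.testBit k) (2 ^ l k) 0)
      = (imgM l m k) ||| (cond (m.testBit k) (2 ^ l k) 0) from rfl, Nat.testBit_or, Bool.or_eq_true, ih]
    constructor
    · rintro (⟨i, hi, h⟩ | h)
      · exact ⟨i, by omega, h⟩
      · cases hm : m.testBit k
        · simp [hm] at h
        · rw [hm] at h
          simp only [cond_true, Nat.testBit_two_pow, decide_eq_true_eq] at h
          exact ⟨k, by omega, hm, h⟩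
    · rintro ⟨i, hi, h1, h2⟩
      by_cases hik : i < k
      · exact Or.inl ⟨i, hik, h1, h2⟩
      · right
        have : i = k := by omega
        subst this
        rw [h1]
        simp [h2]

theorem imgM_lt (l : ℕ → ℕ) (m n : ℕ) (hl : ∀ i < n, l i < n) : imgM l m n < 2 ^ n := by
  have key : ∀ k ≤ n, imgM l m k < 2 ^ n := by
    intro k
    induction k with
    | zero =>
      intro _
      simp [imgM]
    | succ k ih =>
      intro hk
      rw [imgM]
      apply Nat.or_lt_two_pow (ih (by omega))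
      cases m.testBit k
      · simp
      · exact Nat.pow_lt_pow_right (by norm_num) (hl k (by omega))
  exact key n le_rfl

theorem imgM_congr {l l' : ℕ → ℕ} {m : ℕ} (k : ℕ) (h : ∀ i < k, m.testBit i = true → l i = l' i) :
    imgM l m k = imgM l' m k := by
  induction k with
  | zero => rfl
  | succ k ih =>
    rw [imgM, imgM, ih (fun i hi => h i (by omega))]
    cases hm : m.testBit k
    · rfl
    · rw [h k (by omega) hm]

/-- Membership in a list. -/
def memL (x : ℕ) : List ℕ → Bool
  | [] => false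
  | y :: t => cond (Nat.beq x y) true (memL x t)

theorem memL_iff {x : ℕ} {l : List ℕ} : memL x l = true ↔ x ∈ l := by
  induction l with
  | nil => simp [memL]
  | cons y t ih =>
    simp only [memL, List.mem_cons]
    cases h : Nat.beq x y
    · have : x ≠ y := by
        intro hxy
        subst hxy
        simp at h
      simpa [this] using ih
    · have : x = y := Nat.eq_of_beq_eq_true h
      simp [this]

/-- The map of points: the first `r` points are fixed, the next six are given. -/
def lst (r a b c d e f i : ℕ) : ℕ :=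
  cond (Nat.blt i r) i (r + ([a, b, c, d, e, f].getD (i - r) 0))

/-- The final test. -/
def leaf (std : List ℕ) (n r a b c d e f : ℕ) : Bool :=
  !(allL (fun m => memL (imgM (lst r a b c d e f) m n) std) std) ||
    (Nat.beq a 0 && Nat.beq b 1 && Nat.beq c 2 && Nat.beq d 3 && Nat.beq e 4 && Nat.beq f 5)

/-- The search, pruned by three blocks. -/
def checkP (std : List ℕ) (n r m1 m2 m3 : ℕ) : Bool :=
  allUpTo (fun a => allUpTo (fun b => cond (memL (imgM (lst r a b 0 0 0 0) m1 n) std)
    (allUpTo (fun c => allUpTo (fun d => cond (memL (imgM (lst r 0 0 c d 0 0) m2 n) std)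
      (allUpTo (fun e => allUpTo (fun f => cond (memL (imgM (lst r 0 0 0 0 e f) m3 n) std)
        (leaf std n r a b c d e f) true) 6) 6) true) 6) 6) true) 6) 6

theorem leaf_of_checkP {std : List ℕ} {n r m1 m2 m3 : ℕ} (hc : checkP std n r m1 m2 m3 = true)
    {a b c d e f : ℕ} (ha : a < 6) (hb : b < 6) (hc' : c < 6) (hd : d < 6) (he : e < 6) (hf : f < 6)
    (h1 : imgM (lst r a b c d e f) m1 n ∈ std → imgM (lst r a b 0 0 0 0) m1 n ∈ std)
    (h2 : imgM (lst r a b c d e f) m2 n ∈ std → imgM (lst r 0 0 c d 0 0) m2 n ∈ std)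
    (h3 : imgM (lst r a b c d e f) m3 n ∈ std → imgM (lst r 0 0 0 0 e f) m3 n ∈ std)
    (h : ∀ m ∈ std, imgM (lst r a b c d e f) m n ∈ std) (hm1 : m1 ∈ std) (hm2 : m2 ∈ std)
    (hm3 : m3 ∈ std) :
    a = 0 ∧ b = 1 ∧ c = 2 ∧ d = 3 ∧ e = 4 ∧ f = 5 := by
  have s1 := allUpTo_iff.mp (allUpTo_iff.mp hc a ha) b hb
  rw [memL_iff.mpr (h1 (h m1 hm1)), cond_true] at s1
  have s2 := allUpTo_iff.mp (allUpTo_iff.mp s1 c hc') d hd
  rw [memL_iff.mpr (h2 (h m2 hm2)), cond_true] at s2
  have s3 := allUpTo_iff.mp (allUpTo_iff.mp s2 e he) f hf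
  rw [memL_iff.mpr (h3 (h m3 hm3)), cond_true] at s3
  have hall : allL (fun m => memL (imgM (lst r a b c d e f) m n) std) std = true :=
    allL_iff.mpr (fun m hm => memL_iff.mpr (h m hm))
  rw [leaf, hall] at s3
  simp only [Bool.not_true, Bool.false_or, Bool.and_eq_true] at s3
  obtain ⟨⟨⟨⟨⟨h0, h1'⟩, h2'⟩, h3'⟩, h4⟩, h5⟩ := s3
  exact ⟨Nat.eq_of_beq_eq_true h0, Nat.eq_of_beq_eq_true h1', Nat.eq_of_beq_eq_true h2',
    Nat.eq_of_beq_eq_true h3', Nat.eq_of_beq_eq_true h4, Nat.eq_of_beq_eq_true h5⟩

/-- The image of a mask under a permutation. -/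
theorem image_mset {n : ℕ} (g : Equiv.Perm (Fin n)) (l : ℕ → ℕ) (hl : ∀ i : Fin n, l i.val = (g i).val)
    (m : ℕ) : (mset n m).image g = mset n (imgM l m n) := by
  ext x
  rw [mem_image, mem_mset, testBit_imgM]
  constructor
  · rintro ⟨y, hy, rfl⟩
    exact ⟨y.val, y.isLt, mem_mset.mp hy, hl y⟩
  · rintro ⟨i, hi, h1, h2⟩
    refine ⟨⟨i, hi⟩, mem_mset.mpr h1, ?_⟩
    apply Fin.ext
    rw [← hl ⟨i, hi⟩]
    exact h2

theorem blt_false {i r : ℕ} (h : r ≤ i) : Nat.blt i r = false := by
  cases hb : Nat.blt i r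
  · rfl
  · have : i < r := by simpa using hb
    omega

theorem rigid_of_check {n r : ℕ} (hn : n = r + 6) {std : List ℕ} (hlt : ∀ m ∈ std, m < 2 ^ n)
    {m1 m2 m3 : ℕ} (hm1 : m1 ∈ std) (hm2 : m2 ∈ std) (hm3 : m3 ∈ std)
    (hc : checkP std n r m1 m2 m3 = true)
    (hk1 : ∀ a b c d e f, imgM (lst r a b c d e f) m1 n = imgM (lst r a b 0 0 0 0) m1 n)
    (hk2 : ∀ a b c d e f, imgM (lst r a b c d e f) m2 n = imgM (lst r 0 0 c d 0 0) m2 n)
    (hk3 : ∀ a b c d e f, imgM (lst r a b c d e f) m3 n = imgM (lst r 0 0 0 0 e f) m3 n)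
    (g : Equiv.Perm (Fin n)) (hg : g ∈ setSystemAut (mset n '' {m | m ∈ std}))
    (hfix : ∀ i : Fin n, i.val < r → g i = i) : g = 1 := by
  have hval : ∀ (j : ℕ) (hj : j < 6), r ≤ (g ⟨r + j, by omega⟩).val := by
    intro j hj
    by_contra hlt'
    push Not at hlt'
    have h1 := hfix _ hlt'
    have h2 := g.injective h1
    have h3 := congrArg Fin.val h2
    simp only at h3
    omega
  let A : ℕ → ℕ := fun j => if hj : j < 6 then (g ⟨r + j, by omega⟩).val - r else 0
  have hA : ∀ j (hj : j < 6), r + A j = (g ⟨r + j, by omega⟩).val := by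
    intro j hj
    simp only [A, dif_pos hj]
    have := hval j hj
    omega
  have hAlt : ∀ j, j < 6 → A j < 6 := by
    intro j hj
    have h1 := hA j hj
    have h2 := (g ⟨r + j, by omega⟩).isLt
    omega
  let l : ℕ → ℕ := lst r (A 0) (A 1) (A 2) (A 3) (A 4) (A 5)
  have hl : ∀ i : Fin n, l i.val = (g i).val := by
    intro i
    by_cases hi : i.val < r
    · simp only [l, lst]
      rw [show Nat.blt i.val r = true by simpa using hi]
      simp only [cond_true]
      rw [hfix i hi]
    · have hj : i.val - r < 6 := by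
        have := i.isLt
        omega
      have hi' : i = ⟨r + (i.val - r), by omega⟩ := by
        apply Fin.ext
        simp only
        omega
      have h0 : Nat.blt i.val r = false := blt_false (not_lt.mp hi)
      simp only [l, lst, h0, cond_false]
      have h1 : ∀ j, j < 6 → [A 0, A 1, A 2, A 3, A 4, A 5].getD j 0 = A j := by
        intro j hj
        interval_cases j <;> rfl
      rw [h1 _ hj, hA _ hj, ← hi']
  have himg : ∀ m ∈ std, imgM l m n ∈ std := by
    intro m hm
    have h1 : g • mset n m ∈ mset n '' {m | m ∈ std} :=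
      (mem_aut_iff.mp hg _).mpr ⟨m, hm, rfl⟩
    obtain ⟨m', hm', h2⟩ := h1
    have h3 : g • mset n m = mset n (imgM l m n) := image_mset g l hl m
    rw [h3] at h2
    have hl' : ∀ i < n, l i < n := fun i hi => by
      rw [show l i = (g ⟨i, hi⟩).val from hl ⟨i, hi⟩]
      exact (g ⟨i, hi⟩).isLt
    rw [← mset_injOn (hlt m' hm') (imgM_lt l m n hl') h2]
    exact hm'
  obtain ⟨h0, h1, h2, h3, h4, h5⟩ := leaf_of_checkP hc (hAlt 0 (by norm_num)) (hAlt 1 (by norm_num))
    (hAlt 2 (by norm_num)) (hAlt 3 (by norm_num)) (hAlt 4 (by norm_num)) (hAlt 5 (by norm_num))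
    (fun h => by rwa [hk1] at h) (fun h => by rwa [hk2] at h) (fun h => by rwa [hk3] at h)
    himg hm1 hm2 hm3
  ext i
  by_cases hi : i.val < r
  · rw [hfix i hi]
    rfl
  · have hj : i.val - r < 6 := by
      have := i.isLt
      omega
    have hv := hl i
    simp only [l, lst] at hv
    have h6 : Nat.blt i.val r = false := blt_false (not_lt.mp hi)
    rw [h6, cond_false, h0, h1, h2, h3, h4, h5] at hv
    rw [← hv, Equiv.Perm.one_apply]
    generalize hjj : i.val - r = j at hj hv
    have : i.val = r + j := by omega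
    rw [this]
    interval_cases j <;> rfl

set_option maxRecDepth 100000 in
theorem check12 : checkP Cfsg.Agent.Lib.SteinerSearch.S5612.S5612Std 12 6 207 783 3087 = true := by decide +kernel

set_option maxRecDepth 100000 in
theorem check11 : checkP Cfsg.Agent.Lib.SteinerSearch.S4511.S4511Std 11 5 103 391 1543 = true := by decide +kernel

end Cfsg.Agent.Lib.SteinerUniq.Rigid
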